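import Mathlib
import Cfsg.Prelude.Def_ParabolicCharacters
import Cfsg.Agent.Lib.Char.Induce
import Cfsg.Agent.Lib.GL2.Basic

/-!
Principal series of `GL₂(q)`: values and inner products.
-/

set_option autoImplicit false

namespace CfsgLib.GL2

open Matrix Cfsg CfsgLib.Char
open scoped ComplexConjugate

theorem indFun_eq_sum_transversal {G : Type*} [Group G] [Fintype G] (H : Subgroup G) {ι : Type*}
    [Fintype ι] (r : ι → G) (hr : Function.Bijective fun p : ι × H => r p.1 * p.2) {θ : H → ℂ}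
    (hθ : IsClassFunction H θ) (g : G) :
    indFun H θ g = ∑ i, extendByZero H θ ((r i)⁻¹ * g * r i) := by
  classical
  rw [indFun_apply, ← hr.sum_comp (fun x => extendByZero H θ (x⁻¹ * g * x)), Fintype.sum_prod_type]
  have : ∀ (i : ι) (h : H), extendByZero H θ ((r i * h)⁻¹ * g * (r i * h)) =
      extendByZero H θ ((r i)⁻¹ * g * r i) := by
    intro i h
    rw [← extendByZero_conj_of_mem H hθ (H.inv_mem h.2) ((r i)⁻¹ * g * r i)]
    congr 1; group
  simp only [this, Finset.sum_const, Finset.card_univ, nsmul_eq_mul, ← Finset.mul_sum]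
  rw [← Nat.card_eq_fintype_card, inv_mul_cancel_left₀ natCard_ne_zero]

variable {F : Type*} [Field F]

theorem mem_B {g : GL (Fin 2) F} :
    g ∈ upperTriangularGL 2 F ↔ (g : Matrix (Fin 2) (Fin 2) F) 1 0 = 0 := by
  constructor
  · intro h; exact h (show (0 : Fin 2) < 1 by decide)
  · intro h i j hij
    fin_cases i <;> fin_cases j <;> simp_all

/-- the linear character `α ⊗ β` of the Borel subgroup. -/
noncomputable def th (α β : MulChar F ℂ) : upperTriangularGL 2 F → ℂ := fun b =>
  α (((b : GL (Fin 2) F) : Matrix (Fin 2) (Fin 2) F) 0 0) *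
    β (((b : GL (Fin 2) F) : Matrix (Fin 2) (Fin 2) F) 1 1)

/-- `th` as a homomorphism. -/
noncomputable def thHom (α β : MulChar F ℂ) : upperTriangularGL 2 F →* ℂ where
  toFun := th α β
  map_one' := by simp [th]
  map_mul' a b := by
    simp only [th, Subgroup.coe_mul, mul_ap, mem_B.mp a.2, mem_B.mp b.2, mul_zero, zero_mul,
      add_zero, zero_add, map_mul]
    ring

theorem th_isIrr (α β : MulChar F ℂ) : IsIrrCharacter _ (th α β) := isIrr_monoidHom (thHom α β)

/-- upper triangular elements. -/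
noncomputable def up (a : Fˣ) (x : F) (d : Fˣ) : GL (Fin 2) F := mk2 (a : F) x 0 d (by simp)

theorem up_coe (a : Fˣ) (x : F) (d : Fˣ) :
    (up a x d : Matrix (Fin 2) (Fin 2) F) = !![(a : F), x; 0, d] := rfl

theorem up_mem (a : Fˣ) (x : F) (d : Fˣ) : up a x d ∈ upperTriangularGL 2 F := mem_B.mpr rfl

theorem up_bijective : Function.Bijective fun p : (Fˣ × Fˣ) × F =>
    (⟨up p.1.1 p.2 p.1.2, up_mem _ _ _⟩ : upperTriangularGL 2 F) := by
  constructor
  · rintro ⟨⟨a, d⟩, x⟩ ⟨⟨a', d'⟩, x'⟩ h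
    have h1 := congrArg (fun g => ((g.1 : GL (Fin 2) F) : Matrix (Fin 2) (Fin 2) F) 0 0) h
    have h2 := congrArg (fun g => ((g.1 : GL (Fin 2) F) : Matrix (Fin 2) (Fin 2) F) 1 1) h
    have h3 := congrArg (fun g => ((g.1 : GL (Fin 2) F) : Matrix (Fin 2) (Fin 2) F) 0 1) h
    exact Prod.ext (Prod.ext (Units.ext h1) (Units.ext h2)) h3
  · rintro ⟨x, hx⟩
    have x10 := mem_B.mp hx
    have hd := det_ne x
    rw [x10, mul_zero, sub_zero] at hd
    exact ⟨((Units.mk0 _ (left_ne_zero_of_mul hd), Units.mk0 _ (right_ne_zero_of_mul hd)), _),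
      Subtype.ext (ext2 rfl rfl x10.symm rfl)⟩

theorem exists_eq_up {g : GL (Fin 2) F} (h : (g : Matrix (Fin 2) (Fin 2) F) 1 0 = 0) :
    ∃ a x d, g = up a x d := by
  obtain ⟨⟨⟨a, d⟩, x⟩, e⟩ := up_bijective.2 ⟨g, mem_B.mpr h⟩
  exact ⟨a, x, d, (congrArg Subtype.val e).symm⟩

/-- coset representatives of the Borel subgroup. -/
noncomputable def rep : Option F → GL (Fin 2) F
  | none => 1
  | some t => mk2 t 1 1 0 (by simp)

theorem rep_none : rep (none : Option F) = 1 := rfl
theorem rep_some (t : F) : rep (some t) = mk2 t 1 1 0 (by simp) := rfl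

theorem rep_some_inv (t : F) : (rep (some t))⁻¹ = mk2 0 1 1 (-t) (by simp) := by
  rw [inv_eq_iff_mul_eq_one, rep_some]
  apply ext2 <;> simp [mul_ap, mk2_coe]

theorem rep_bijective :
    Function.Bijective fun p : Option F × upperTriangularGL 2 F => rep p.1 * p.2 := by
  constructor
  · rintro ⟨i, b⟩ ⟨j, c⟩ h
    have hb := mem_B.mp b.2
    have hc := mem_B.mp c.2
    have hb0 : ((b : GL (Fin 2) F) : Matrix (Fin 2) (Fin 2) F) 0 0 ≠ 0 := by
      intro h0; apply det_ne (b : GL (Fin 2) F); rw [h0, hb]; ring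
    have hc0 : ((c : GL (Fin 2) F) : Matrix (Fin 2) (Fin 2) F) 0 0 ≠ 0 := by
      intro h0; apply det_ne (c : GL (Fin 2) F); rw [h0, hc]; ring
    have h0 := congrArg (fun g : GL (Fin 2) F => (g : Matrix (Fin 2) (Fin 2) F) 0 0) h
    have h1 := congrArg (fun g : GL (Fin 2) F => (g : Matrix (Fin 2) (Fin 2) F) 1 0) h
    have hij : i = j := by
      rcases i with _ | s <;> rcases j with _ | t <;>
        simp only [rep_none, rep_some, one_mul, mul_ap, mk2_00, mk2_01, mk2_10, mk2_11, hb, hc,
          mul_zero, add_zero] at h0 h1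
      · rfl
      · exact absurd h1.symm hc0
      · exact absurd h1 hb0
      · rw [h1] at h0; rw [mul_right_cancel₀ hc0 h0]
    subst hij
    exact Prod.ext rfl (Subtype.ext (mul_left_cancel h))
  · intro x
    by_cases hx : (x : Matrix (Fin 2) (Fin 2) F) 1 0 = 0
    · exact ⟨(none, ⟨x, mem_B.mpr hx⟩), one_mul x⟩
    · refine ⟨(some ((x : Matrix (Fin 2) (Fin 2) F) 0 0 / (x : Matrix (Fin 2) (Fin 2) F) 1 0),
        ⟨(rep (some _))⁻¹ * x, mem_B.mpr ?_⟩), mul_inv_cancel_left _ _⟩
      rw [rep_some_inv, mul_ap, mk2_10, mk2_11]; field_simp; ring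

variable [Fintype F] [Fintype (GL (Fin 2) F)]

/-- principal series. -/
noncomputable def ps (α β : MulChar F ℂ) : GL (Fin 2) F → ℂ :=
  indFun (upperTriangularGL 2 F) (th α β)

theorem ps_isCharacter (α β : MulChar F ℂ) : IsCharacter _ (ps α β) :=
  isCharacter_indFun _ (isCharacter_of_isIrr (th_isIrr α β))

open Classical in
theorem ps_apply (α β : MulChar F ℂ) (g : GL (Fin 2) F) (a b c d : F)
    (hg : (g : Matrix (Fin 2) (Fin 2) F) = !![a, b; c, d]) :
    ps α β g = (if c = 0 then α a * β d else 0) +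
      ∑ t : F, if a * t + b = t * (c * t + d) then α (c * t + d) * β (a - t * c) else 0 := by
  rw [ps, indFun_eq_sum_transversal _ rep rep_bijective (isClassFunction_of_isIrr (th_isIrr α β)),
    Fintype.sum_option]
  congr 1
  · rw [rep_none, inv_one, one_mul, mul_one, extendByZero_eq_dite]
    simp only [mem_B, th, hg]
    simp
  · refine Finset.sum_congr rfl fun t _ => ?_
    have h : (((rep (some t))⁻¹ * g * rep (some t) : GL (Fin 2) F) : Matrix (Fin 2) (Fin 2) F) =
        !![c * t + d, c; a * t + b - t * (c * t + d), a - t * c] := by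
      rw [rep_some_inv, rep_some, Units.val_mul, Units.val_mul, hg, mk2_coe, mk2_coe]
      ext i j; fin_cases i <;> fin_cases j <;> simp [Matrix.mul_apply] <;> ring
    rw [extendByZero_eq_dite]
    simp only [mem_B, th, h]
    simp [sub_eq_zero]

theorem ps_noEig (α β : MulChar F ℂ) {g : GL (Fin 2) F} (hg : NoEig g) : ps α β g = 0 := by
  classical
  rw [ps_apply α β g _ _ _ _ (Matrix.eta_fin_two _), if_neg hg.ne_10, zero_add]
  refine Finset.sum_eq_zero fun t _ => if_neg fun h => ?_
  exact hg.ne ((g : Matrix (Fin 2) (Fin 2) F) 1 0 * t + (g : Matrix (Fin 2) (Fin 2) F) 1 1) t 1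
    (Or.inr one_ne_zero) (by linear_combination h) (by ring)

open Classical in
theorem ps_up (α β : MulChar F ℂ) (a : Fˣ) (x : F) (d : Fˣ) :
    ps α β (up a x d) = α a * β d + ∑ t : F, if x = t * (d - a) then α d * β a else 0 := by
  rw [ps_apply α β _ _ _ _ _ (up_coe a x d), if_pos rfl]
  congr 1
  refine Finset.sum_congr rfl fun t _ => ?_
  simp only [zero_mul, zero_add, mul_zero, sub_zero]
  exact if_congr ⟨fun h => by linear_combination h, fun h => by linear_combination h⟩ rfl rfl

theorem ps_up_of_ne (α β : MulChar F ℂ) {a d : Fˣ} (h : a ≠ d) (x : F) :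
    ps α β (up a x d) = α a * β d + α d * β a := by
  classical
  have hs : (d : F) - a ≠ 0 := sub_ne_zero.mpr fun e => h (Units.ext e.symm)
  rw [ps_up, Finset.sum_eq_single (x / (d - a))]
  · rw [if_pos (by field_simp)]
  · intro t _ ht
    rw [if_neg]
    intro e; apply ht; rw [e]; field_simp
  · simp

theorem ps_up_unip (α β : MulChar F ℂ) (a : Fˣ) {x : F} (hx : x ≠ 0) :
    ps α β (up a x a) = α a * β a := by
  classical
  rw [ps_up]; simp [hx]

theorem ps_up_scal (α β : MulChar F ℂ) (a : Fˣ) :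
    ps α β (up a 0 a) = (Fintype.card F + 1) * (α a * β a) := by
  classical
  rw [ps_up]; simp; ring

theorem up_one : up (1 : Fˣ) (0 : F) 1 = 1 := by apply ext2 <;> simp [up_coe]

theorem ps_one (α β : MulChar F ℂ) : ps α β 1 = Fintype.card F + 1 := by
  rw [← up_one, ps_up_scal]; simp

theorem sum_ps_up (α β : MulChar F ℂ) (a d : Fˣ) :
    ∑ x : F, ps α β (up a x d) = Fintype.card F * (α a * β d + α d * β a) := by
  classical
  simp only [ps_up, Finset.sum_add_distrib]
  rw [Finset.sum_comm]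
  simp; ring

open Classical in
theorem sum_mulChar_conj (α β : MulChar F ℂ) :
    ∑ a : Fˣ, α a * conj (β a) = if α = β then (Nat.card Fˣ : ℂ) else 0 := by
  have h := card_mul_classInner (G := Fˣ) (fun a => (α.toUnitHom a : ℂ)) (fun a => (β.toUnitHom a : ℂ))
  by_cases e : α = β
  · subst e
    rw [classInner_irr_self (isIrr_unitsHom _)] at h
    simp only [MulChar.coe_toUnitHom] at h
    rw [← h, if_pos rfl, mul_one]
  · rw [classInner_irr_of_ne (isIrr_unitsHom _) (isIrr_unitsHom _)
      (fun h' => e (MulChar.ext fun a => by simpa using congrFun h' a))] at h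
    simp only [MulChar.coe_toUnitHom] at h
    rw [← h, if_neg e, mul_zero]

theorem card_B : (Nat.card (upperTriangularGL 2 F) : ℂ) =
    Nat.card Fˣ * Nat.card Fˣ * Fintype.card F := by
  rw [← Nat.card_eq_of_bijective _ up_bijective, Nat.card_prod, Nat.card_prod,
    Nat.card_eq_fintype_card (α := F)]
  push_cast; ring

open Classical in
theorem classInner_ps (α β : MulChar F ℂ) {f : GL (Fin 2) F → ℂ} (hf : IsClassFunction _ f) :
    classInner f (ps α β) = (Nat.card Fˣ * Nat.card Fˣ * Fintype.card F : ℂ)⁻¹ *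
      ∑ a : Fˣ, ∑ d : Fˣ, (∑ x : F, f (up a x d)) * conj (α a * β d) := by
  rw [ps, classInner_indFun_right _ _ hf, classInner_def, card_B,
    ← up_bijective.sum_comp, Fintype.sum_prod_type, Fintype.sum_prod_type]
  simp only [Finset.sum_mul]
  rfl

open Classical in
theorem classInner_ps_of {α β : MulChar F ℂ} {f : GL (Fin 2) F → ℂ} (hf : IsClassFunction _ f)
    {ι : Type*} (s : Finset ι) (γ δ : ι → MulChar F ℂ)
    (h : ∀ a d : Fˣ, ∑ x : F, f (up a x d) = Fintype.card F * ∑ i ∈ s, γ i a * δ i d) :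
    classInner f (ps α β) = ∑ i ∈ s, if γ i = α ∧ δ i = β then 1 else 0 := by
  rw [classInner_ps α β hf]
  have h1 : ∀ a d : Fˣ, (∑ x : F, f (up a x d)) * conj (α a * β d) =
      ∑ i ∈ s, Fintype.card F * ((γ i a * conj (α a)) * (δ i d * conj (β d))) := by
    intro a d
    rw [h, Finset.mul_sum, Finset.sum_mul]
    refine Finset.sum_congr rfl fun i _ => ?_
    rw [map_mul]; ring
  simp only [h1]
  rw [Finset.sum_congr rfl fun a _ => Finset.sum_comm, Finset.sum_comm, Finset.mul_sum]
  refine Finset.sum_congr rfl fun i _ => ?_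
  simp only [← Finset.mul_sum]
  rw [← Finset.sum_mul, sum_mulChar_conj, sum_mulChar_conj]
  have h2 : (Nat.card Fˣ : ℂ) ≠ 0 := natCard_ne_zero
  have h3 : (Fintype.card F : ℂ) ≠ 0 := Nat.cast_ne_zero.mpr Fintype.card_ne_zero
  by_cases e1 : γ i = α <;> by_cases e2 : δ i = β <;> simp only [e1, e2, if_true, if_false,
    and_self, and_false, false_and, mul_zero, zero_mul]
  field_simp

open Classical in
theorem classInner_ps_ps (α β α' β' : MulChar F ℂ) :
    classInner (ps α β) (ps α' β') =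
      (if α = α' ∧ β = β' then 1 else 0) + (if β = α' ∧ α = β' then 1 else 0) := by
  rw [classInner_ps_of (isClassFunction_of_isCharacter (ps_isCharacter α β)) Finset.univ
    ![α, β] ![β, α] (fun a d => by rw [sum_ps_up]; simp; ring), Fin.sum_univ_two]
  rfl

theorem ps_isIrr {α β : MulChar F ℂ} (h : α ≠ β) : IsIrrCharacter _ (ps α β) := by
  refine isIrr_of_inner_self_eq_one (ps_isCharacter α β) ?_
  rw [classInner_ps_ps]; simp [h, h.symm]

theorem ps_comm (α β : MulChar F ℂ) : ps α β = ps β α := by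
  classical
  rw [← sub_eq_zero, ← classInner_self_eq_zero]
  simp only [classInner_sub_left, classInner_sub_right, classInner_ps_ps]
  by_cases h : α = β
  · simp [h]
  · simp [h, Ne.symm h]

theorem ps_eq_iff (α β α' β' : MulChar F ℂ) :
    ps α β = ps α' β' ↔ (α = α' ∧ β = β') ∨ (α = β' ∧ β = α') := by
  classical
  constructor
  · intro h
    by_contra hc
    have h1 := classInner_ps_ps α β α' β'
    rw [← h, classInner_ps_ps, if_pos ⟨rfl, rfl⟩, if_neg (fun e => hc (Or.inl e)),
      if_neg (fun e : β = α' ∧ α = β' => hc (Or.inr e.symm))] at h1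
    split_ifs at h1 <;> norm_num at h1
  · rintro (⟨rfl, rfl⟩ | ⟨rfl, rfl⟩)
    · rfl
    · exact ps_comm _ _

end CfsgLib.GL2
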