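import Mathlib
import Cfsg.Agent.Lib.GL2.Series
import Cfsg.Agent.Lib.Char.CAut
import Cfsg.Agent.Lib.Classical.SLCard

/-!
The irreducible characters of `GL₂(q)`: linear, Steinberg, principal series and cuspidal ones.
-/

set_option autoImplicit false

namespace CfsgLib.GL2

open Matrix Cfsg CfsgLib.Char
open scoped ComplexConjugate

variable {F : Type*} [Field F]

/-- the linear character `α ∘ det`. -/
noncomputable def lin (α : MulChar F ℂ) : GL (Fin 2) F → ℂ := fun g =>
  α (g : Matrix (Fin 2) (Fin 2) F).det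

/-- `lin` as a homomorphism. -/
noncomputable def linHom (α : MulChar F ℂ) : GL (Fin 2) F →* ℂ where
  toFun := lin α
  map_one' := by simp [lin]
  map_mul' a b := by simp [lin]

theorem lin_isIrr (α : MulChar F ℂ) : IsIrrCharacter _ (lin α) := isIrr_monoidHom (linHom α)

theorem lin_up (α : MulChar F ℂ) (a : Fˣ) (x : F) (d : Fˣ) : lin α (up a x d) = α a * α d := by
  simp [lin, up_coe, Matrix.det_fin_two]

theorem lin_one (α : MulChar F ℂ) : lin α 1 = 1 := by simp [lin]

theorem isConj_up {a d : Fˣ} (h : a ≠ d) (x y : F) : IsConj (up a x d) (up a y d) := by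
  have hn : ∀ z, ¬ IsScal (up a z d) := fun z hz => h (Units.ext hz.2.2)
  exact isConj_of_trace_det (hn x) (hn y) (by simp [up_coe, Matrix.trace_fin_two])
    (by simp [up_coe, Matrix.det_fin_two])

theorem isConj_up_unip (a : Fˣ) {x y : F} (hx : x ≠ 0) (hy : y ≠ 0) :
    IsConj (up a x a) (up a y a) :=
  isConj_of_trace_det (fun hz => hx hz.1) (fun hz => hy hz.1)
    (by simp [up_coe, Matrix.trace_fin_two]) (by simp [up_coe, Matrix.det_fin_two])

variable [Fintype F]

theorem norm_mulChar (α : MulChar F ℂ) (a : Fˣ) : ‖α a‖ = 1 := by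
  apply norm_eq_one_of_pow_orderOf (g := a)
  rw [← map_pow, ← Units.val_pow_eq_pow_val, pow_orderOf_eq_one, Units.val_one, map_one]

theorem norm_lin (α : MulChar F ℂ) (g : GL (Fin 2) F) : ‖lin α g‖ = 1 :=
  norm_mulChar α (Matrix.GeneralLinearGroup.det g)

open _root_.Classical in
theorem fourier_zero (f : Fˣ → ℂ) (h : ∀ α : MulChar F ℂ, ∑ a : Fˣ, f a * conj (α a) = 0) :
    f = 0 := by
  refine classFun_eq_zero_of_inner (G := Fˣ) (isClassFunction_of_comm f) fun χ hχ => ?_
  obtain ⟨θ, rfl⟩ := exists_unitsHom_of_one_eq_one (isCharacter_of_isIrr hχ)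
    (irr_one_eq_one_of_comm hχ)
  have := h (MulChar.ofUnitHom θ)
  simp only [MulChar.ofUnitHom_coe] at this
  rw [classInner_def, this, mul_zero]

theorem card_mulChar : Nat.card (MulChar F ℂ) = Fintype.card F - 1 := by
  rw [MulChar.card_eq_card_units_of_hasEnoughRootsOfUnity F ℂ, CfsgLib.Classical.sl_card_units]

variable [Fintype (GL (Fin 2) F)]

open _root_.Classical in
theorem classInner_lin_ps (α β γ : MulChar F ℂ) :
    classInner (lin α) (ps β γ) = if α = β ∧ α = γ then 1 else 0 := by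
  rw [classInner_ps_of (isClassFunction_of_isIrr (lin_isIrr α)) (Finset.univ : Finset Unit)
    (fun _ => α) (fun _ => α) (fun a d => by simp [lin_up])]
  simp

/-- the characters of degree `q`. -/
noncomputable def st (α : MulChar F ℂ) : GL (Fin 2) F → ℂ := ps α α - lin α

theorem st_one (α : MulChar F ℂ) : st α 1 = Fintype.card F := by
  simp [st, ps_one, lin_one]

theorem st_isIrr (α : MulChar F ℂ) : IsIrrCharacter _ (st α) := by
  classical
  refine isIrr_of_genChar_norm_one ⟨_, _, ps_isCharacter α α, isCharacter_of_isIrr (lin_isIrr α), rfl⟩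
    ?_ (by rw [st_one]; simp)
  have h1 := classInner_lin_ps α α α
  have h2 := classInner_comm_char (ps_isCharacter α α) (isCharacter_of_isIrr (lin_isIrr α))
  rw [st, classInner_sub_left, classInner_sub_right, classInner_sub_right, h2, h1, classInner_ps_ps,
    classInner_irr_self (lin_isIrr α)]
  simp

open _root_.Classical in
theorem classInner_st_ps (α β γ : MulChar F ℂ) :
    classInner (st α) (ps β γ) = if α = β ∧ α = γ then 1 else 0 := by
  rw [st, classInner_sub_left, classInner_ps_ps, classInner_lin_ps]; simp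

theorem lin_injective : Function.Injective (lin : MulChar F ℂ → GL (Fin 2) F → ℂ) := by
  classical
  intro α β h
  have h1 := classInner_lin_ps α α α
  rw [h, classInner_lin_ps] at h1
  by_contra hne
  simp [Ne.symm hne] at h1

theorem st_injective : Function.Injective (st : MulChar F ℂ → GL (Fin 2) F → ℂ) := by
  classical
  intro α β h
  have h1 := classInner_st_ps α α α
  rw [h, classInner_st_ps] at h1
  by_contra hne
  simp [Ne.symm hne] at h1

theorem st_up_of_ne (α : MulChar F ℂ) {a d : Fˣ} (h : a ≠ d) (x : F) :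
    st α (up a x d) = α a * α d := by
  rw [st, Pi.sub_apply, ps_up_of_ne α α h, lin_up]; ring

theorem st_up_unip (α : MulChar F ℂ) (a : Fˣ) {x : F} (hx : x ≠ 0) : st α (up a x a) = 0 := by
  rw [st, Pi.sub_apply, ps_up_unip α α a hx, lin_up]; ring

theorem st_noEig (α : MulChar F ℂ) {g : GL (Fin 2) F} (hg : NoEig g) : st α g = - lin α g := by
  rw [st, Pi.sub_apply, ps_noEig α α hg, zero_sub]

/-- cuspidal irreducible characters. -/
def Cusp (χ : GL (Fin 2) F → ℂ) : Prop :=
  IsIrrCharacter _ χ ∧ ∀ α β : MulChar F ℂ, classInner χ (ps α β) = 0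

theorem irr_cases {χ : GL (Fin 2) F → ℂ} (hχ : IsIrrCharacter _ χ) :
    (∃ α, χ = lin α) ∨ (∃ α, χ = st α) ∨ (∃ α β, α ≠ β ∧ χ = ps α β) ∨ Cusp χ := by
  by_cases hc : Cusp χ
  · exact Or.inr (Or.inr (Or.inr hc))
  have : ∃ α β : MulChar F ℂ, classInner χ (ps α β) ≠ 0 := by
    by_contra h; push Not at h; exact hc ⟨hχ, h⟩
  obtain ⟨α, β, h⟩ := this
  by_cases e : α = β
  · subst e
    have h1 : ps α α = lin α + st α := by rw [st]; abel
    rw [h1, classInner_add_right] at h
    by_cases h2 : classInner χ (lin α) = 0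
    · rw [h2, zero_add] at h
      exact Or.inr (Or.inl ⟨α, irr_eq_of_classInner_ne_zero hχ (st_isIrr α) h⟩)
    · exact Or.inl ⟨α, irr_eq_of_classInner_ne_zero hχ (lin_isIrr α) h2⟩
  · exact Or.inr (Or.inr (Or.inl ⟨α, β, e, irr_eq_of_classInner_ne_zero hχ (ps_isIrr e) h⟩))

open _root_.Classical in
theorem Cusp.sum_up {χ : GL (Fin 2) F → ℂ} (h : Cusp χ) (a d : Fˣ) :
    ∑ x : F, χ (up a x d) = 0 := by
  classical
  have h1 : ∀ β : MulChar F ℂ, ∑ d : Fˣ, (∑ x : F, χ (up a x d)) * conj (β d) = 0 := by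
    intro β
    have := fourier_zero (fun a : Fˣ => ∑ d : Fˣ, (∑ x : F, χ (up a x d)) * conj (β d)) fun α => by
      have h2 := h.2 α β
      rw [classInner_ps α β (isClassFunction_of_isIrr h.1), mul_eq_zero] at h2
      rcases h2 with h2 | h2
      · exfalso
        have h3 : (Nat.card Fˣ : ℂ) ≠ 0 := natCard_ne_zero
        have h4 : (Fintype.card F : ℂ) ≠ 0 := Nat.cast_ne_zero.mpr Fintype.card_ne_zero
        exact inv_ne_zero (mul_ne_zero (mul_ne_zero h3 h3) h4) h2
      · rw [← h2]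
        refine Finset.sum_congr rfl fun a _ => ?_
        rw [Finset.sum_mul]
        refine Finset.sum_congr rfl fun d _ => ?_
        rw [map_mul]; ring
    exact congrFun this a
  exact congrFun (fourier_zero _ h1) d

theorem Cusp.up_of_ne {χ : GL (Fin 2) F → ℂ} (h : Cusp χ) {a d : Fˣ} (hne : a ≠ d) (x : F) :
    χ (up a x d) = 0 := by
  have h1 := h.sum_up a d
  rw [Finset.sum_congr rfl fun y _ => classFun_eq_of_isConj (isClassFunction_of_isIrr h.1)
    (isConj_up hne y x)] at h1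
  simpa using h1

theorem Cusp.one_eq {χ : GL (Fin 2) F → ℂ} (h : Cusp χ) :
    χ 1 = -((Fintype.card F - 1 : ℂ) * χ (up 1 1 1)) := by
  classical
  have h1 := h.sum_up 1 1
  rw [← Finset.add_sum_erase _ _ (Finset.mem_univ (0 : F)), up_one,
    Finset.sum_congr rfl fun y hy => classFun_eq_of_isConj (isClassFunction_of_isIrr h.1)
    (isConj_up_unip 1 (Finset.ne_of_mem_erase hy) one_ne_zero), Finset.sum_const,
    Finset.card_erase_of_mem (Finset.mem_univ _), Finset.card_univ, nsmul_eq_mul,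
    Nat.cast_sub Fintype.card_pos] at h1
  push_cast at h1
  linear_combination h1

theorem card_sub_one_ne : (Fintype.card F - 1 : ℂ) ≠ 0 := by
  have : 1 < Fintype.card F := Fintype.one_lt_card
  rw [sub_ne_zero]; exact_mod_cast this.ne'

theorem Cusp.exists_deg {χ : GL (Fin 2) F → ℂ} (h : Cusp χ) :
    ∃ m : ℕ, 0 < m ∧ χ 1 = m * (Fintype.card F - 1 : ℂ) := by
  obtain ⟨n, hn, e⟩ := exists_irr_one_eq_nat h.1
  have h1 := h.one_eq
  have h2 := card_sub_one_ne (F := F)
  obtain ⟨k, hk⟩ := exists_int_of_isIntegral_of_rat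
    (isIntegral_char (isCharacter_of_isIrr h.1) (up 1 1 1))
    ⟨-(n : ℚ) / (Fintype.card F - 1), by push_cast; rw [← e, h1]; field_simp⟩
  rw [hk, e] at h1
  have h3 : (n : ℤ) = -((Fintype.card F - 1 : ℤ) * k) := by exact_mod_cast h1
  have h4 : (1 : ℤ) < Fintype.card F := by exact_mod_cast (Fintype.one_lt_card : 1 < Fintype.card F)
  have h5 : 0 < -k := by
    by_contra h6
    have : 0 ≤ (Fintype.card F - 1 : ℤ) * k := mul_nonneg (by omega) (by omega)
    omega
  refine ⟨(-k).toNat, by omega, ?_⟩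
  rw [e, h1]
  have : (((-k).toNat : ℕ) : ℂ) = ((-k : ℤ) : ℂ) := by
    rw [← Int.cast_natCast, Int.toNat_of_nonneg h5.le]
  rw [this]; push_cast; ring

theorem not_cusp_lin (α : MulChar F ℂ) : ¬ Cusp (lin α) := fun h => by
  classical
  have := h.2 α α
  rw [classInner_lin_ps] at this; simp at this

theorem not_cusp_st (α : MulChar F ℂ) : ¬ Cusp (st α) := fun h => by
  classical
  have := h.2 α α
  rw [classInner_st_ps] at this; simp at this

theorem not_cusp_ps {α β : MulChar F ℂ} (hne : α ≠ β) : ¬ Cusp (ps α β) := fun h => by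
  have := h.2 α β
  rw [classInner_irr_self (ps_isIrr hne)] at this; simp at this

theorem card_irr_of_finset {G : Type*} [Group G] (p : (G → ℂ) → Prop) (T : Finset (G → ℂ))
    (h : ∀ χ, χ ∈ T ↔ IsIrrCharacter G χ ∧ p χ) :
    Nat.card {χ : IrrCharacter G // p χ} = T.card := by
  rw [← Fintype.card_coe, ← Nat.card_eq_fintype_card]
  exact Nat.card_congr
    { toFun := fun χ => ⟨χ.1.1, (h _).2 ⟨χ.1.2, χ.2⟩⟩
      invFun := fun χ => ⟨⟨χ.1, ((h _).1 χ.2).1⟩, ((h _).1 χ.2).2⟩
      left_inv := fun _ => rfl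
      right_inv := fun _ => rfl }

theorem exists_finsets : ∃ L S P C : Finset (GL (Fin 2) F → ℂ),
    (∀ χ, χ ∈ L ↔ ∃ α, χ = lin α) ∧ (∀ χ, χ ∈ S ↔ ∃ α, χ = st α) ∧
    (∀ χ, χ ∈ P ↔ ∃ α β, α ≠ β ∧ χ = ps α β) ∧ (∀ χ, χ ∈ C ↔ Cusp χ) ∧
    L.card = Fintype.card F - 1 ∧ S.card = Fintype.card F - 1 ∧
    2 * P.card = (Fintype.card F - 1) * (Fintype.card F - 2) ∧
    2 * C.card = Fintype.card F * (Fintype.card F - 1) ∧
    ∀ χ ∈ C, χ 1 = Fintype.card F - 1 := by
  classical
  haveI : Finite (MulChar F ℂ) := Nat.finite_of_card_ne_zero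
    (by rw [card_mulChar]; exact CfsgLib.Classical.sl_card_sub_one_pos.ne')
  letI := Fintype.ofFinite (MulChar F ℂ)
  letI : Fintype (IrrCharacter (GL (Fin 2) F)) := irrFintype
  have hM : Fintype.card (MulChar F ℂ) = Fintype.card F - 1 := by
    rw [← Nat.card_eq_fintype_card, card_mulChar]
  obtain ⟨L, hL⟩ : ∃ L : Finset (GL (Fin 2) F → ℂ), L = Finset.univ.image lin := ⟨_, rfl⟩
  obtain ⟨S, hS⟩ : ∃ L : Finset (GL (Fin 2) F → ℂ), L = Finset.univ.image st := ⟨_, rfl⟩
  obtain ⟨P, hP⟩ : ∃ L : Finset (GL (Fin 2) F → ℂ),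
    L = (Finset.univ : Finset (MulChar F ℂ)).offDiag.image fun p => ps p.1 p.2 := ⟨_, rfl⟩
  obtain ⟨I, hI⟩ : ∃ L : Finset (GL (Fin 2) F → ℂ),
    L = (Finset.univ : Finset (IrrCharacter (GL (Fin 2) F))).image Subtype.val := ⟨_, rfl⟩
  obtain ⟨C, hC⟩ : ∃ L : Finset (GL (Fin 2) F → ℂ), L = I.filter Cusp := ⟨_, rfl⟩
  have mI : ∀ χ, χ ∈ I ↔ IsIrrCharacter _ χ := fun χ => by simp [hI]
  have mL : ∀ χ, χ ∈ L ↔ ∃ α, χ = lin α := fun χ => by simp [hL, eq_comm]
  have mS : ∀ χ, χ ∈ S ↔ ∃ α, χ = st α := fun χ => by simp [hS, eq_comm]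
  have mP : ∀ χ, χ ∈ P ↔ ∃ α β, α ≠ β ∧ χ = ps α β := fun χ => by simp [hP, eq_comm]
  have mC : ∀ χ, χ ∈ C ↔ Cusp χ := fun χ => by
    rw [hC, Finset.mem_filter, mI]; exact ⟨fun h => h.2, fun h => ⟨h.1, h⟩⟩
  have cL : L.card = Fintype.card F - 1 := by
    rw [hL, Finset.card_image_of_injective _ lin_injective, Finset.card_univ, hM]
  have cS : S.card = Fintype.card F - 1 := by
    rw [hS, Finset.card_image_of_injective _ st_injective, Finset.card_univ, hM]
  have cP : 2 * P.card = (Fintype.card F - 1) * (Fintype.card F - 2) := by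
    have h1 := Finset.card_eq_sum_card_image (fun p : MulChar F ℂ × MulChar F ℂ => ps p.1 p.2)
      (Finset.univ : Finset (MulChar F ℂ)).offDiag
    rw [← hP, Finset.offDiag_card, Finset.card_univ, hM,
      Finset.sum_congr rfl (g := fun _ => 2) ?_] at h1
    · rw [Finset.sum_const, smul_eq_mul] at h1
      rw [mul_comm, ← h1, show Fintype.card F - 2 = Fintype.card F - 1 - 1 from rfl,
        Nat.mul_sub_one (Fintype.card F - 1) (Fintype.card F - 1)]
    · intro χ hχ
      obtain ⟨α, β, hne, rfl⟩ := (mP χ).1 hχ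
      rw [Finset.card_eq_two]
      refine ⟨(α, β), (β, α), fun e => hne (congrArg Prod.fst e), ?_⟩
      ext ⟨a, b⟩
      simp only [Finset.mem_filter, Finset.mem_offDiag, Finset.mem_univ, true_and, ps_eq_iff,
        Finset.mem_insert, Finset.mem_singleton, Prod.mk.injEq]
      constructor
      · exact fun h => h.2
      · rintro (⟨rfl, rfl⟩ | ⟨rfl, rfl⟩)
        · exact ⟨hne, Or.inl ⟨rfl, rfl⟩⟩
        · exact ⟨hne.symm, Or.inr ⟨rfl, rfl⟩⟩
  have hq : 1 < Fintype.card F := Fintype.one_lt_card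
  have dL : ∀ χ ∈ L, χ 1 = 1 := fun χ h => by obtain ⟨α, rfl⟩ := (mL χ).1 h; exact lin_one α
  have dS : ∀ χ ∈ S, χ 1 = Fintype.card F := fun χ h => by
    obtain ⟨α, rfl⟩ := (mS χ).1 h; exact st_one α
  have dP : ∀ χ ∈ P, χ 1 = Fintype.card F + 1 := fun χ h => by
    obtain ⟨α, β, -, rfl⟩ := (mP χ).1 h; exact ps_one α β
  have key : ∀ f : (GL (Fin 2) F → ℂ) → ℂ, ∑ χ : IrrCharacter (GL (Fin 2) F), f χ =
      ∑ χ ∈ L, f χ + ∑ χ ∈ S, f χ + ∑ χ ∈ P, f χ + ∑ χ ∈ C, f χ := by
    intro f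
    have e1 : I = L ∪ S ∪ P ∪ C := by
      ext χ
      simp only [Finset.mem_union, mI, mL, mS, mP, mC]
      constructor
      · intro h; simpa only [or_assoc] using irr_cases h
      · rintro (((⟨α, rfl⟩ | ⟨α, rfl⟩) | ⟨α, β, h, rfl⟩) | h)
        exacts [lin_isIrr α, st_isIrr α, ps_isIrr h, h.1]
    rw [← Finset.sum_image (s := Finset.univ) (g := Subtype.val) (f := f)
      (fun _ _ _ _ h => Subtype.ext h), ← hI, e1, Finset.sum_union, Finset.sum_union,
      Finset.sum_union]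
    · rw [Finset.disjoint_left]
      intro χ h1 h2
      have := (dL χ h1).symm.trans (dS χ h2)
      exact hq.ne (by exact_mod_cast this)
    · rw [Finset.disjoint_left]
      intro χ h1 h2
      rcases Finset.mem_union.1 h1 with h1 | h1
      · have := (dL χ h1).symm.trans (dP χ h2)
        have : 1 = Fintype.card F + 1 := by exact_mod_cast this
        omega
      · have := (dS χ h1).symm.trans (dP χ h2)
        simp at this
    · rw [Finset.disjoint_left]
      intro χ h1 h2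
      rw [mC] at h2
      simp only [Finset.mem_union, mL, mS, mP] at h1
      rcases h1 with (⟨α, rfl⟩ | ⟨α, rfl⟩) | ⟨α, β, h, rfl⟩
      exacts [not_cusp_lin α h2, not_cusp_st α h2, not_cusp_ps h h2]
  obtain ⟨n, hn⟩ : ∃ n, Fintype.card F = n + 2 := ⟨Fintype.card F - 2, by omega⟩
  have k1 := key fun _ => 1
  simp only [Finset.sum_const, Finset.card_univ, nsmul_eq_mul, mul_one] at k1
  rw [← Nat.card_eq_fintype_card, card_irr_eq_card_conjClasses, card_conjClasses] at k1
  have k1' : Fintype.card F ^ 2 - 1 = L.card + S.card + P.card + C.card := by exact_mod_cast k1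
  have cC : 2 * C.card = Fintype.card F * (Fintype.card F - 1) := by
    rw [cL, cS, hn] at k1'
    rw [hn] at cP ⊢
    have e1 : (n + 2) ^ 2 - 1 = n * n + 4 * n + 3 := by
      rw [show (n + 2) ^ 2 = n * n + 4 * n + 3 + 1 by ring]; rfl
    simp only [show n + 2 - 1 = n + 1 from rfl, show n + 2 - 2 = n from rfl, e1] at k1' cP ⊢
    nlinarith
  have k2 := key fun χ => χ 1 ^ 2
  rw [sum_irr_one_sq, CfsgLib.Classical.gl2_card,
    Finset.sum_congr (s₁ := L) rfl fun χ h => by rw [dL χ h],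
    Finset.sum_congr (s₁ := S) rfl fun χ h => by rw [dS χ h],
    Finset.sum_congr (s₁ := P) rfl fun χ h => by rw [dP χ h]] at k2
  simp only [Finset.sum_const, nsmul_eq_mul] at k2
  choose! m hm0 hm using fun χ (h : χ ∈ C) => ((mC χ).1 h).exists_deg
  rw [Finset.sum_congr (s₁ := C) rfl fun χ h => by rw [hm χ h, mul_pow], ← Finset.sum_mul, cL, cS, hn] at k2
  have cP' : (2 : ℂ) * P.card = (n + 1) * n := by
    rw [hn] at cP; exact_mod_cast cP
  have cC' : (2 : ℂ) * C.card = (n + 2) * (n + 1) := by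
    rw [hn] at cC; exact_mod_cast cC
  have k3 : ∑ χ ∈ C, ((m χ : ℂ)) ^ 2 = C.card := by
    have h1 : ((n : ℂ) + 1) ^ 2 ≠ 0 := pow_ne_zero _ (by exact_mod_cast Nat.succ_ne_zero n)
    apply mul_right_cancel₀ h1
    simp only [show n + 2 - 1 = n + 1 from rfl] at k2
    push_cast at k2
    linear_combination (-1 : ℂ) * k2 - ((n : ℂ) + 3) ^ 2 / 2 * cP' - ((n : ℂ) + 1) ^ 2 / 2 * cC'
  have k4 : ∑ χ ∈ C, (1 : ℕ) = ∑ χ ∈ C, m χ ^ 2 := by
    have : ∑ χ ∈ C, m χ ^ 2 = C.card := by exact_mod_cast k3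
    rw [this]; simp
  have k5 := (Finset.sum_eq_sum_iff_of_le fun χ h => Nat.one_le_pow 2 _ (hm0 χ h)).1 k4
  refine ⟨L, S, P, C, mL, mS, mP, mC, cL, cS, cP, cC, fun χ h => ?_⟩
  have : m χ = 1 := by
    have := k5 χ h
    exact (pow_eq_one_iff_of_nonneg (Nat.zero_le _) two_ne_zero).1 this.symm
  rw [hm χ h, this]; simp

theorem Cusp.deg {χ : GL (Fin 2) F → ℂ} (h : Cusp χ) : χ 1 = Fintype.card F - 1 := by
  obtain ⟨L, S, P, C, -, -, -, mC, -, -, -, -, h1⟩ := exists_finsets (F := F)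
  exact h1 χ ((mC χ).2 h)

theorem Cusp.unip {χ : GL (Fin 2) F → ℂ} (h : Cusp χ) : χ (up 1 1 1) = -1 := by
  have h1 := h.one_eq
  rw [h.deg] at h1
  apply mul_left_cancel₀ (card_sub_one_ne (F := F))
  linear_combination h1

end CfsgLib.GL2
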